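/-
Sublattices of `ℤ^24` in frame coordinates with the minimum and kissing number of the Leech
lattice: their octads form a Steiner system, and they have odd minimal vectors at every place.
-/
import Cfsg.Agent.Leech.Minimal

set_option autoImplicit false

namespace CfsgLib.LeechChar

open Cfsg CfsgLib.Golay CfsgLib.Leech Finset
open scoped symmDiff

attribute [local irreducible] Finset.powersetCard

/-- A sublattice in frame coordinates (scaled by `√8`). -/
structure Frame (Λ : AddSubgroup (GolayPt → ℤ)) : Prop where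
  dvd : ∀ a ∈ Λ, (16 : ℤ) ∣ sqNorm a
  min : ∀ a ∈ Λ, a ≠ 0 → 32 ≤ sqNorm a
  pairs : ∀ i j : GolayPt, i ≠ j → ∀ c d : ℤ, (c = 4 ∨ c = -4) → (d = 4 ∨ d = -4) →
    Pi.single i c + Pi.single j d ∈ Λ
  count : {a : GolayPt → ℤ | a ∈ Λ ∧ sqNorm a = 32}.ncard = 196560

variable {Λ : AddSubgroup (GolayPt → ℤ)}

theorem Frame.dot (h : Frame Λ) {a b : GolayPt → ℤ} (ha : a ∈ Λ) (hb : b ∈ Λ) :
    (8 : ℤ) ∣ dotInt a b := by
  have := h.dvd a ha
  have := h.dvd b hb
  have := h.dvd _ (add_mem ha hb)
  have := sqNorm_add a b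
  omega

theorem dot_single (a : GolayPt → ℤ) (i : GolayPt) (c : ℤ) :
    dotInt a (Pi.single i c) = a i * c := by
  simp [dotInt, Pi.single_apply]

theorem dot_add (a b c : GolayPt → ℤ) : dotInt a (b + c) = dotInt a b + dotInt a c := by
  simp [dotInt, mul_add, Finset.sum_add_distrib]

theorem Frame.parity (h : Frame Λ) {a : GolayPt → ℤ} (ha : a ∈ Λ) (i j : GolayPt) :
    a i % 2 = a j % 2 := by
  rcases eq_or_ne i j with rfl | hij
  · rfl
  · have := h.dot ha (h.pairs i j hij 4 4 (Or.inl rfl) (Or.inl rfl))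
    rw [dot_add, dot_single, dot_single] at this
    omega

theorem Frame.four (h : Frame Λ) (z : GolayPt → ℤ) (hz : 2 ∣ ∑ i, z i) :
    (fun i => 4 * z i) ∈ Λ := by
  obtain ⟨q, hq⟩ := hz
  have h8 : (Pi.single none 8 : GolayPt → ℤ) ∈ Λ := by
    have hne : (none : GolayPt) ≠ some 0 := by simp
    have e : (Pi.single none 8 : GolayPt → ℤ) =
        (Pi.single none 4 + Pi.single (some 0) 4) + (Pi.single none 4 + Pi.single (some 0) (-4)) := by
      funext k
      rcases eq_or_ne k none with rfl | hi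
      · simp
      · rcases eq_or_ne k (some 0) with rfl | hj <;> simp [*]
    rw [e]
    exact add_mem (h.pairs _ _ hne 4 4 (Or.inl rfl) (Or.inl rfl))
      (h.pairs _ _ hne 4 (-4) (Or.inl rfl) (Or.inr rfl))
  have hd : ∀ j : GolayPt, (Pi.single j 4 - Pi.single none 4 : GolayPt → ℤ) ∈ Λ := fun j => by
    rcases eq_or_ne j none with rfl | hj
    · rw [sub_self]; exact zero_mem _
    · have := h.pairs j none hj 4 (-4) (Or.inl rfl) (Or.inr rfl)
      rwa [Pi.single_neg, ← sub_eq_add_neg] at this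
  have e : (fun i => 4 * z i) =
      ∑ j, z j • (Pi.single j 4 - Pi.single none 4 : GolayPt → ℤ) + q • (Pi.single none 8 : GolayPt → ℤ) := by
    funext i
    simp only [Pi.add_apply, Finset.sum_apply, Pi.smul_apply, Pi.sub_apply, smul_eq_mul, mul_sub,
      Finset.sum_sub_distrib]
    rw [← Finset.sum_mul, hq, Finset.sum_eq_single i (fun j _ hj => by simp [hj.symm])
      (fun h => absurd (Finset.mem_univ i) h)]
    rcases eq_or_ne i none with rfl | hi <;> simp [*] <;> ring
  rw [e]
  exact add_mem (sum_mem fun j _ => zsmul_mem (hd j) _) (zsmul_mem h8 q)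

/-! ### Shapes -/

/-- Entries `±k` on `s`, zero elsewhere. -/
def Shape (k : ℤ) (a : GolayPt → ℤ) (s : Finset GolayPt) : Prop :=
  (∀ i ∈ s, a i = k ∨ a i = -k) ∧ ∀ i, i ∉ s → a i = 0

theorem Shape.norm {k : ℤ} {a : GolayPt → ℤ} {s : Finset GolayPt} (h : Shape k a s) :
    sqNorm a = k ^ 2 * s.card := by
  have e : ∀ i, a i ^ 2 = if i ∈ s then k ^ 2 else 0 := fun i => by
    by_cases hi : i ∈ s
    · rcases h.1 i hi with e | e <;> simp [e, hi]
    · simp [h.2 i hi, hi]
  simp only [sqNorm, e, Fintype.sum_ite_mem, Finset.sum_const, nsmul_eq_mul]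
  ring

theorem Shape.supp {k : ℤ} (hk : k ≠ 0) {a : GolayPt → ℤ} {s : Finset GolayPt} (h : Shape k a s) :
    Finset.univ.filter (fun i => a i ≠ 0) = s := by
  ext i
  by_cases hi : i ∈ s
  · rcases h.1 i hi with e | e <;> simp [e, hi, hk]
  · simp [h.2 i hi, hi]

theorem Shape.half_supp {a : GolayPt → ℤ} {s : Finset GolayPt} (h : Shape 2 a s) :
    support₂ (half a) = s := by
  ext i
  rw [mem_support_half]
  by_cases hi : i ∈ s
  · rcases h.1 i hi with e | e <;> simp [e, hi]
  · simp [h.2 i hi, hi]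

theorem Shape.even {a : GolayPt → ℤ} {s : Finset GolayPt} (h : Shape 2 a s) (i : GolayPt) :
    a i % 2 = 0 := by
  by_cases hi : i ∈ s
  · rcases h.1 i hi with e | e <;> omega
  · have := h.2 i hi; omega

theorem support_add (v w : GolayPt → ZMod 2) : support₂ (v + w) = support₂ v ∆ support₂ w := by
  ext i
  simp only [support₂, Finset.mem_symmDiff, mem_filter, mem_univ, true_and, Pi.add_apply]
  generalize v i = x
  generalize w i = y
  revert x y
  decide

theorem Frame.rep (h : Frame Λ) {a : GolayPt → ℤ} (ha : a ∈ Λ) (h2 : ∀ i, a i % 2 = 0)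
    (hne : (support₂ (half a)).Nonempty) : ∃ b ∈ Λ, Shape 2 b (support₂ (half a)) := by
  set s := support₂ (half a) with hs
  obtain ⟨i0, hi0⟩ := hne
  have hb : ∀ i, (i ∈ s → a i % 4 = 2) ∧ (i ∉ s → a i % 4 = 0) := fun i => by
    rw [hs, mem_support_half]
    have := h2 i
    omega
  let b : GolayPt → ℤ := fun i => if i ∈ s then 2 else 0
  let z : GolayPt → ℤ := fun i => (a i - b i) / 4
  have hz : ∀ i, a i - b i = 4 * z i := fun i => by
    simp only [z, b]
    rcases Classical.em (i ∈ s) with hi | hi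
    · have := (hb i).1 hi; rw [if_pos hi]; omega
    · have := (hb i).2 hi; rw [if_neg hi]; omega
  rcases Classical.em (2 ∣ ∑ i, z i) with hev | hev
  · refine ⟨b, ?_, fun i hi => Or.inl (by simp [b, hi]), fun i hi => by simp [b, hi]⟩
    have e : b = a - fun i => 4 * z i := funext fun i => by
      have := hz i; simp only [Pi.sub_apply]; omega
    rw [e]
    exact sub_mem ha (h.four z hev)
  · have e : b - Pi.single i0 4 = a - fun i => 4 * (z + Pi.single i0 1 : GolayPt → ℤ) i := funext fun i => by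
      have := hz i
      rcases eq_or_ne i i0 with rfl | hi <;> simp [*] <;> omega
    refine ⟨b - Pi.single i0 4, ?_, fun i hi => ?_, fun i hi => ?_⟩
    · rw [e]
      refine sub_mem ha (h.four _ ?_)
      simp only [Pi.add_apply, Finset.sum_add_distrib, Finset.sum_pi_single', mem_univ, if_true]
      omega
    · rcases eq_or_ne i i0 with rfl | hii
      · right; simp only [b, Pi.sub_apply, Pi.single_eq_same, if_pos hi]; norm_num
      · left; simp only [b, Pi.sub_apply, Pi.single_eq_of_ne hii, if_pos hi, sub_zero]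
    · have hii : i ≠ i0 := fun e => hi (e ▸ hi0)
      simp [b, hi, hii]

theorem Frame.code_card (h : Frame Λ) {a : GolayPt → ℤ} (ha : a ∈ Λ) (h2 : ∀ i, a i % 2 = 0) :
    support₂ (half a) = ∅ ∨ (4 ∣ (support₂ (half a)).card ∧ 8 ≤ (support₂ (half a)).card) := by
  rcases (support₂ (half a)).eq_empty_or_nonempty with e | e
  · exact Or.inl e
  · obtain ⟨b, hb, hs⟩ := h.rep ha h2 e
    have hpos := e.card_pos
    have h1 := h.dvd b hb
    have h0 : b ≠ 0 := fun h0 => by
      have := hs.half_supp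
      rw [h0] at this
      obtain ⟨i, hi⟩ := e
      rw [← this, mem_support_half] at hi
      simp at hi
    have h3 := h.min b hb h0
    rw [hs.norm] at h1 h3
    right
    omega

theorem Frame.octad_inter (h : Frame Λ) {a b : GolayPt → ℤ} {s t : Finset GolayPt}
    (ha : a ∈ Λ) (hb : b ∈ Λ) (hs : Shape 2 a s) (ht : Shape 2 b t) (cs : s.card = 8)
    (ct : t.card = 8) (h5 : 5 ≤ (s ∩ t).card) : s = t := by
  have e2 : ∀ i, (a + b) i % 2 = 0 := fun i => by
    have := hs.even i; have := ht.even i; simp only [Pi.add_apply]; omega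
  have hc := h.code_card (add_mem ha hb) e2
  rw [half_add_even hs.even ht.even, support_add, hs.half_supp, ht.half_supp] at hc
  rcases hc with hc | ⟨-, hc⟩
  · exact symmDiff_eq_bot.1 hc
  · have e1 := Finset.card_sdiff_add_card_inter s t
    have e3 := Finset.card_sdiff_add_card_inter t s
    rw [Finset.inter_comm t s] at e3
    rw [symmDiff_def, Finset.sup_eq_union,
      Finset.card_union_of_disjoint disjoint_sdiff_sdiff] at hc
    omega

/-! ### The code -/

/-- Halves of the even vectors. -/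
def code (Λ : AddSubgroup (GolayPt → ℤ)) : AddSubgroup (GolayPt → ZMod 2) where
  carrier := {w | ∃ a ∈ Λ, (∀ i, a i % 2 = 0) ∧ half a = w}
  zero_mem' := ⟨0, zero_mem _, fun _ => rfl, funext fun i => by simp [half]⟩
  add_mem' := by
    rintro _ _ ⟨a, ha, a2, rfl⟩ ⟨b, hb, b2, rfl⟩
    exact ⟨a + b, add_mem ha hb, fun i => by
      have := a2 i; have := b2 i; simp only [Pi.add_apply]; omega, half_add_even a2 b2⟩
  neg_mem' := by
    rintro _ ⟨a, ha, a2, rfl⟩
    exact ⟨-a, neg_mem ha, fun i => by have := a2 i; simp only [Pi.neg_apply]; omega, funext fun i => by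
      simp only [half, Pi.neg_apply, ← Int.cast_neg]
      refine cast2_eq ?_
      have := a2 i
      omega⟩

theorem dot_half {a b : GolayPt → ℤ} (a2 : ∀ i, a i % 2 = 0) (b2 : ∀ i, b i % 2 = 0)
    (h : (8 : ℤ) ∣ dotInt a b) : ∑ i, half a i * half b i = 0 := by
  have e : dotInt a b = 4 * ∑ i, (a i / 2) * (b i / 2) := by
    rw [Finset.mul_sum]
    refine Finset.sum_congr rfl fun i _ => ?_
    obtain ⟨p, hp⟩ : (2 : ℤ) ∣ a i := Int.dvd_of_emod_eq_zero (a2 i)
    obtain ⟨q, hq⟩ : (2 : ℤ) ∣ b i := Int.dvd_of_emod_eq_zero (b2 i)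
    rw [hp, hq, Int.mul_ediv_cancel_left _ two_ne_zero, Int.mul_ediv_cancel_left _ two_ne_zero]
    ring
  have e2 : ∑ i, half a i * half b i = ((∑ i, (a i / 2) * (b i / 2) : ℤ) : ZMod 2) := by
    simp [half]
  rw [e2, ZMod.intCast_zmod_eq_zero_iff_dvd]
  omega

theorem Frame.card_code (h : Frame Λ) : Nat.card (code Λ) ≤ 4096 := by
  classical
  set C : Submodule (ZMod 2) (GolayPt → ZMod 2) := AddSubgroup.toZModSubmodule 2 (code Λ) with hC
  have hle : C.map (dotProductEquiv (ZMod 2) GolayPt).toLinearMap ≤ C.dualAnnihilator := by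
    rintro _ ⟨v, ⟨a, ha, a2, rfl⟩, rfl⟩
    rw [Submodule.mem_dualAnnihilator]
    rintro _ ⟨b, hb, b2, rfl⟩
    exact dot_half a2 b2 (h.dot ha hb)
  have h1 := Submodule.finrank_mono hle
  rw [LinearEquiv.finrank_map_eq] at h1
  have h2 := Subspace.finrank_add_finrank_dualAnnihilator_eq C
  rw [Module.finrank_fintype_fun_eq_card, card_pt] at h2
  have h3 : Nat.card C = 2 ^ Module.finrank (ZMod 2) C := by
    rw [Module.natCard_eq_pow_finrank (K := ZMod 2), Nat.card_zmod]
  calc Nat.card (code Λ) = Nat.card C := rfl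
    _ ≤ 2 ^ 12 := h3 ▸ Nat.pow_le_pow_right (by omega) (by omega)

/-! ### Counting -/

/-- The octads of the lattice. -/
def octSet (Λ : AddSubgroup (GolayPt → ℤ)) : Set (Finset GolayPt) :=
  {s | s.card = 8 ∧ ∃ a ∈ Λ, Shape 2 a s}

/-- Minimal vectors with `±3` at `p`. -/
def Odd3 (p : GolayPt) (a : GolayPt → ℤ) : Prop :=
  (a p = 3 ∨ a p = -3) ∧ ∀ i, i ≠ p → a i = 1 ∨ a i = -1

theorem Frame.classify (h : Frame Λ) {a : GolayPt → ℤ} (ha : a ∈ Λ) (hn : sqNorm a = 32) :
    (∃ s : Finset GolayPt, s.card = 2 ∧ Shape 4 a s) ∨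
      (∃ s : Finset GolayPt, s.card = 8 ∧ Shape 2 a s) ∨ ∃ p, Odd3 p a := by
  classical
  rcases Int.emod_two_eq_zero_or_one (a none) with hp | hp
  · have h2 : ∀ i, a i % 2 = 0 := fun i => (h.parity ha i none).trans hp
    have e : sqNorm a = 4 * ∑ i, (a i / 2) ^ 2 := by
      rw [sqNorm, Finset.mul_sum]
      refine Finset.sum_congr rfl fun i _ => ?_
      obtain ⟨p, hp⟩ : (2 : ℤ) ∣ a i := Int.dvd_of_emod_eq_zero (h2 i)
      rw [hp, Int.mul_ediv_cancel_left _ two_ne_zero]; ring
    have hle : ∀ i, (a i / 2) % 2 ≤ (a i / 2) ^ 2 := fun i => by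
      rcases eq_or_ne (a i / 2) 0 with e | e
      · simp [e]
      · have := one_le_sq_of_ne_zero e; omega
    rcases h.code_card ha h2 with hc | ⟨-, hc⟩
    · left
      have h4 : ∀ i, a i = 4 * (a i / 4) := fun i => by
        have : i ∉ support₂ (half a) := by simp [hc]
        rw [mem_support_half] at this
        have := h2 i
        omega
      have e4 : ∑ i, (a i / 4) ^ 2 = 2 := by
        have : sqNorm a = 16 * ∑ i, (a i / 4) ^ 2 := by
          rw [sqNorm, Finset.mul_sum]
          exact Finset.sum_congr rfl fun i _ => by rw [show a i ^ 2 = (4 * (a i / 4)) ^ 2 by rw [← h4 i]]; ring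
        omega
      have hv : ∀ i, a i / 4 = 0 ∨ a i / 4 = 1 ∨ a i / 4 = -1 := fun i => by
        have h1 : (a i / 4) ^ 2 ≤ 2 :=
          e4 ▸ Finset.single_le_sum (f := fun j => (a j / 4) ^ 2) (fun j _ => sq_nonneg _) (mem_univ i)
        have : -1 ≤ a i / 4 ∧ a i / 4 ≤ 1 := by constructor <;> nlinarith
        omega
      have hs : Shape 4 a (univ.filter fun i => a i ≠ 0) :=
        ⟨fun i hi => by
          have := (mem_filter.1 hi).2; have := hv i; have := h4 i; omega,
         fun i hi => by simpa using hi⟩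
      refine ⟨_, ?_, hs⟩
      have := hs.norm
      omega
    · right; left
      have hs8 : ∑ i, (a i / 2) % 2 = 8 := by
        refine le_antisymm ?_ (by rw [sum_odd]; omega)
        have := Finset.sum_le_sum fun i (_ : i ∈ univ) => hle i
        omega
      have heq := (Finset.sum_eq_sum_iff_of_le fun i _ => hle i).1
        (show ∑ i, (a i / 2) % 2 = ∑ i, (a i / 2) ^ 2 by omega)
      refine ⟨support₂ (half a), by rw [sum_odd] at hs8; omega, fun i hi => ?_, fun i hi => ?_⟩
      · rw [mem_support_half] at hi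
        have h1 := heq i (mem_univ i)
        rw [hi] at h1
        have : -1 ≤ a i / 2 ∧ a i / 2 ≤ 1 := by constructor <;> nlinarith
        have := h2 i
        omega
      · rw [mem_support_half] at hi
        have h1 := heq i (mem_univ i)
        rw [show (a i / 2) % 2 = 0 by omega, eq_comm, sq_eq_zero_iff] at h1
        have := h2 i
        omega
  · right; right
    have hodd : ∀ i, a i % 2 = 1 := fun i => (h.parity ha i none).trans hp
    have hge : ∀ i, 1 ≤ a i ^ 2 := fun i => one_le_sq_of_ne_zero (by have := hodd i; omega)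
    have hbig : ∀ i, ¬(a i = 1 ∨ a i = -1) → 9 ≤ a i ^ 2 := fun i hi => by
      have := hodd i
      rcases (show 3 ≤ a i ∨ a i ≤ -3 by omega) with e | e <;> nlinarith
    obtain ⟨p, hp3⟩ : ∃ p, ¬(a p = 1 ∨ a p = -1) := by
      by_contra hall
      push Not at hall
      have : sqNorm a = 24 := by
        rw [sqNorm, Finset.sum_congr rfl (g := fun _ => (1 : ℤ)) fun i _ => by
          rcases hall i with e | e <;> simp [e]]
        simp [card_pt]
      omega
    have hsum := Finset.add_sum_erase univ (fun i => a i ^ 2) (mem_univ p)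
    have hcard : (univ.erase p).card = 23 := by
      rw [card_erase_of_mem (mem_univ p), card_univ, card_pt]
    have hp9 := hbig p hp3
    have hrest : ∀ i ∈ univ.erase p, a i = 1 ∨ a i = -1 := by
      intro q hq
      by_contra hq3
      have hsum2 := Finset.add_sum_erase (univ.erase p) (fun i => a i ^ 2) hq
      have := Finset.card_nsmul_le_sum ((univ.erase p).erase q) (fun i => a i ^ 2) 1 fun i _ => hge i
      rw [card_erase_of_mem hq, hcard, nsmul_eq_mul] at this
      have := hbig q hq3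
      simp only [sqNorm] at hn
      omega
    have h23 : ∑ i ∈ univ.erase p, a i ^ 2 = 23 := by
      rw [Finset.sum_congr rfl (g := fun _ => (1 : ℤ)) fun i hi => by
        rcases hrest i hi with e | e <;> simp [e]]
      simp [hcard]
    simp only [sqNorm] at hn
    refine ⟨p, ?_, fun i hi => hrest i (mem_erase.2 ⟨hi, mem_univ _⟩)⟩
    have h9 : a p ^ 2 = 3 ^ 2 := by omega
    exact sq_eq_sq_iff_eq_or_eq_neg.1 h9

theorem Shape.ext {k : ℤ} (hk : 0 < k) {a b : GolayPt → ℤ} {s : Finset GolayPt}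
    (ha : Shape k a s) (hb : Shape k b s) (h : ∀ i ∈ s, a i < 0 ↔ b i < 0) : a = b := by
  funext i
  by_cases hi : i ∈ s
  · have := h i hi
    rcases ha.1 i hi with e | e <;> rcases hb.1 i hi with e' | e' <;> omega
  · rw [ha.2 i hi, hb.2 i hi]

theorem Frame.card_shape2 (h : Frame Λ) (M : Finset (GolayPt → ℤ)) (hM : ∀ a ∈ M, a ∈ Λ)
    {s : Finset GolayPt} (hs : s.card = 8) (hM2 : ∀ a ∈ M, Shape 2 a s) : M.card ≤ 128 := by
  classical
  obtain ⟨i0, hi0⟩ : s.Nonempty := card_pos.1 (by omega)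
  refine le_trans (card_le_card_of_injOn (fun a => (s.erase i0).filter fun i => a i < 0)
    (t := (s.erase i0).powerset) (fun a _ => ?_) ?_) ?_
  · exact mem_powerset.2 (filter_subset _ _)
  · intro a ha b hb hab
    simp only [Finset.mem_coe] at ha hb
    have key : ∀ i ∈ s, i ≠ i0 → (a i < 0 ↔ b i < 0) := fun i hi hne => by
      have := Finset.ext_iff.1 hab i
      simpa [hne, hi] using this
    have hoff : ∀ i, i ≠ i0 → (a - b) i = 0 := fun i hne => by
      by_cases hi : i ∈ s
      · have := key i hi hne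
        rcases (hM2 a ha).1 i hi with e | e <;> rcases (hM2 b hb).1 i hi with e' | e' <;>
          simp only [Pi.sub_apply] <;> omega
      · simp [(hM2 a ha).2 i hi, (hM2 b hb).2 i hi]
    by_contra hne
    have h32 := h.min (a - b) (sub_mem (hM a ha) (hM b hb)) (sub_ne_zero.2 hne)
    rw [sqNorm, Finset.sum_eq_single i0 (fun i _ hi => by rw [hoff i hi]; simp)
      (fun hh => absurd (mem_univ _) hh), Pi.sub_apply] at h32
    rcases (hM2 a ha).1 i0 hi0 with e | e <;> rcases (hM2 b hb).1 i0 hi0 with e' | e' <;>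
      simp [e, e'] at h32
  · rw [card_powerset, card_erase_of_mem hi0, hs]
    norm_num

theorem Frame.card_odd (h : Frame Λ) (M : Finset (GolayPt → ℤ)) (hM : ∀ a ∈ M, a ∈ Λ) {p : GolayPt}
    (hp : ∀ a ∈ M, Odd3 p a) : M.card ≤ 4096 := by
  classical
  rcases M.eq_empty_or_nonempty with rfl | ⟨c, hc⟩
  · simp
  have hodd : ∀ a ∈ M, ∀ i, a i % 2 = 1 := fun a ha i => by
    rcases eq_or_ne i p with rfl | hi
    · rcases (hp a ha).1 with e | e <;> omega
    · rcases (hp a ha).2 i hi with e | e <;> omega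
  refine le_trans ?_ h.card_code
  rw [← Nat.card_eq_finsetCard]
  refine Nat.card_le_card_of_injective (fun a : M => (⟨half (a.1 - c), a.1 - c,
    sub_mem (hM _ a.2) (hM c hc), fun i => by
      have := hodd _ a.2 i; have := hodd c hc i; simp only [Pi.sub_apply]; omega, rfl⟩ : code Λ)) ?_
  intro a b hab
  have hab' : half (a.1 - c) = half (b.1 - c) := congrArg Subtype.val hab
  refine Subtype.ext (funext fun i => ?_)
  have e := congrFun hab' i
  simp only [half, Pi.sub_apply] at e
  rw [ZMod.intCast_eq_intCast_iff'] at e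
  have := hodd _ a.2 i
  have := hodd _ b.2 i
  have := hodd c hc i
  rcases eq_or_ne i p with rfl | hi
  · rcases (hp _ a.2).1 with e1 | e1 <;> rcases (hp _ b.2).1 with e2 | e2 <;> omega
  · rcases (hp _ a.2).2 i hi with e1 | e1 <;> rcases (hp _ b.2).2 i hi with e2 | e2 <;> omega

theorem card_shape4 (M : Finset (GolayPt → ℤ))
    (hM : ∀ a ∈ M, ∃ s : Finset GolayPt, s.card = 2 ∧ Shape 4 a s) : M.card ≤ 1104 := by
  classical
  refine le_trans (card_le_card_of_injOn
    (fun a => (⟨univ.filter fun i => a i ≠ 0, univ.filter fun i => a i < 0⟩ :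
      (_ : Finset GolayPt) × Finset GolayPt))
    (t := (univ.powersetCard 2).sigma fun s => s.powerset) (fun a ha => ?_) ?_) ?_
  · obtain ⟨s, hs, hsh⟩ := hM a ha
    simp only [Finset.mem_coe, mem_sigma, mem_powersetCard, hsh.supp (by norm_num : (4 : ℤ) ≠ 0),
      mem_powerset]
    refine ⟨⟨subset_univ _, hs⟩, fun i hi => ?_⟩
    by_contra hn
    have := (mem_filter.1 hi).2
    rw [hsh.2 i hn] at this
    omega
  · intro a ha b hb hab
    simp only [Sigma.mk.injEq, heq_eq_eq] at hab
    obtain ⟨s, hs, hsh⟩ := hM a ha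
    obtain ⟨t, ht, hth⟩ := hM b hb
    have est : s = t := by
      rw [← hsh.supp (by norm_num : (4 : ℤ) ≠ 0), ← hth.supp (by norm_num : (4 : ℤ) ≠ 0), hab.1]
    subst est
    exact hsh.ext (by norm_num) hth fun i _ => by simpa using Finset.ext_iff.1 hab.2 i
  · rw [card_sigma, Finset.sum_congr rfl (g := fun _ => 4) fun s hs => by
      rw [card_powerset, (mem_powersetCard.1 hs).2]; norm_num]
    rw [sum_const, card_powersetCard, card_univ, card_pt, Nat.choose_two_right, smul_eq_mul]

/-- The octads form a Steiner system and every place carries `±3` in some minimal vector. -/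
theorem Frame.main (h : Frame Λ) : IsSteinerSystem 5 8 (octSet Λ) ∧ ∀ p, ∃ a ∈ Λ, Odd3 p a := by
  classical
  have hf : {a : GolayPt → ℤ | a ∈ Λ ∧ sqNorm a = 32}.Finite :=
    Set.finite_of_ncard_ne_zero (by rw [h.count]; omega)
  set M := hf.toFinset with hMdef
  have hMmem : ∀ a, a ∈ M ↔ a ∈ Λ ∧ sqNorm a = 32 := fun a => by simp [hMdef]
  have cM : M.card = 196560 := by rw [hMdef, ← Set.ncard_eq_toFinset_card _ hf, h.count]
  set O : Finset (Finset GolayPt) :=
    (univ.powersetCard 8).filter fun s => s ∈ octSet Λ with hO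
  have hOmem : ∀ s, s ∈ O ↔ s ∈ octSet Λ := fun s => by
    simp only [hO, mem_filter, mem_powersetCard, subset_univ, true_and, and_iff_right_iff_imp]
    exact fun hs => hs.1
  have inter : ∀ s ∈ O, ∀ t ∈ O, 5 ≤ (s ∩ t).card → s = t := fun s hs t ht h5 => by
    obtain ⟨cs, a, ha, sa⟩ := (hOmem s).1 hs
    obtain ⟨ct, b, hb, tb⟩ := (hOmem t).1 ht
    exact h.octad_inter ha hb sa tb cs ct h5
  have c5 : (O.biUnion fun s => s.powersetCard 5).card = O.card * 56 := by
    rw [card_biUnion, Finset.sum_congr rfl (g := fun _ => 56) fun s hs => by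
      rw [card_powersetCard, ((hOmem s).1 hs).1]; rfl, sum_const, smul_eq_mul]
    intro s hs t ht hne
    refine Finset.disjoint_left.2 fun u hu hu' => hne (inter s hs t ht ?_)
    rw [mem_powersetCard] at hu hu'
    exact hu.2 ▸ card_le_card (subset_inter hu.1 hu'.1)
  have c5' : (univ.powersetCard 5 : Finset (Finset GolayPt)).card = 42504 := by
    rw [card_powersetCard, card_univ, card_pt]; decide +kernel
  have sub5 : (O.biUnion fun s => s.powersetCard 5) ⊆ univ.powersetCard 5 := fun u hu => by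
    obtain ⟨s, _, hu⟩ := mem_biUnion.1 hu
    exact mem_powersetCard.2 ⟨subset_univ _, (mem_powersetCard.1 hu).2⟩
  have hO759 : O.card * 56 ≤ 42504 := c5 ▸ c5' ▸ card_le_card sub5
  set M4 := M.filter fun a => ∃ s : Finset GolayPt, s.card = 2 ∧ Shape 4 a s
  set M2 : Finset GolayPt → Finset (GolayPt → ℤ) := fun s => M.filter fun a => Shape 2 a s
  set M1 : GolayPt → Finset (GolayPt → ℤ) := fun p => M.filter fun a => Odd3 p a
  have cover : M ⊆ M4 ∪ O.biUnion M2 ∪ univ.biUnion M1 := fun a ha => by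
    obtain ⟨haΛ, han⟩ := (hMmem a).1 ha
    rcases h.classify haΛ han with e | ⟨s, hs, e⟩ | ⟨p, e⟩
    · exact mem_union_left _ (mem_union_left _ (mem_filter.2 ⟨ha, e⟩))
    · exact mem_union_left _ (mem_union_right _
        (mem_biUnion.2 ⟨s, (hOmem s).2 ⟨hs, a, haΛ, e⟩, mem_filter.2 ⟨ha, e⟩⟩))
    · exact mem_union_right _ (mem_biUnion.2 ⟨p, mem_univ _, mem_filter.2 ⟨ha, e⟩⟩)
  have inΛ : ∀ a ∈ M, a ∈ Λ := fun a ha => ((hMmem a).1 ha).1
  have b4 : M4.card ≤ 1104 := card_shape4 _ fun a ha => (mem_filter.1 ha).2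
  have b2 : (O.biUnion M2).card ≤ O.card * 128 := by
    refine le_trans card_biUnion_le (le_of_le_of_eq (Finset.sum_le_card_nsmul _ _ 128 fun s hs => ?_) (smul_eq_mul _ _))
    exact h.card_shape2 _ (fun a ha => inΛ a (mem_filter.1 ha).1) ((hOmem s).1 hs).1
      fun a ha => (mem_filter.1 ha).2
  have b1 : ∀ p, (M1 p).card ≤ 4096 := fun p =>
    h.card_odd _ (fun a ha => inΛ a (mem_filter.1 ha).1) fun a ha => (mem_filter.1 ha).2
  have tot : 196560 ≤ 1104 + O.card * 128 + ∑ p, (M1 p).card := by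
    have := card_le_card cover
    have := card_union_le (M4 ∪ O.biUnion M2) (univ.biUnion M1)
    have := card_union_le M4 (O.biUnion M2)
    have := card_biUnion_le (s := univ) (t := M1)
    omega
  have sum1 : ∑ p, (M1 p).card ≤ 98304 := by
    refine le_trans (Finset.sum_le_card_nsmul _ _ 4096 fun p _ => b1 p) ?_
    simp [card_pt]
  refine ⟨⟨fun s hs => hs.1, fun u hu => ?_⟩, fun p => ?_⟩
  · have : u ∈ O.biUnion fun s => s.powersetCard 5 := by
      rw [eq_of_subset_of_card_le sub5 (by rw [c5, c5']; omega)]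
      exact mem_powersetCard.2 ⟨subset_univ _, hu⟩
    obtain ⟨s, hs, hsu⟩ := mem_biUnion.1 this
    refine ⟨s, ⟨(hOmem s).1 hs, (mem_powersetCard.1 hsu).1⟩, fun t ht => ?_⟩
    exact inter t ((hOmem t).2 ht.1) s hs
      (hu ▸ card_le_card (subset_inter ht.2 (mem_powersetCard.1 hsu).1))
  · by_contra hne
    have hz : (M1 p).card = 0 := by
      rw [card_eq_zero, eq_empty_iff_forall_notMem]
      exact fun a ha => hne ⟨a, inΛ a (mem_filter.1 ha).1, (mem_filter.1 ha).2⟩
    have h23 : ∑ q ∈ univ.erase p, (M1 q).card ≤ 23 * 4096 := by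
      refine le_trans (Finset.sum_le_card_nsmul _ _ 4096 fun q _ => b1 q) ?_
      rw [card_erase_of_mem (mem_univ p), card_univ, card_pt, smul_eq_mul]
    have := Finset.add_sum_erase univ (fun q => (M1 q).card) (mem_univ p)
    simp only [hz, zero_add] at this
    omega

end CfsgLib.LeechChar
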