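/-
An even rootless form with the vector numbers of the Leech lattice in frame coordinates.
-/
import Cfsg.Agent.LeechChar.Frame
import Cfsg.Agent.Lattice24.Congruence

set_option autoImplicit false

namespace CfsgLib.LeechChar

open Cfsg CfsgLib.Golay CfsgLib.Leech Finset Matrix CfsgLib.Lattice24

variable {B : Matrix (Fin 24) (Fin 24) ℤ}

theorem exists_frame (h : EvenRootless B)
    (h4 : {x : Fin 24 → ℤ | x ⬝ᵥ (B *ᵥ x) = 4}.ncard = 196560)
    (h6 : {x : Fin 24 → ℤ | x ⬝ᵥ (B *ᵥ x) = 6}.ncard = 16773120)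
    (h8 : {x : Fin 24 → ℤ | x ⬝ᵥ (B *ᵥ x) = 8}.ncard = 398034000) :
    ∃ e : Fin 24 → Fin 24 → ℤ, (∀ i j, e i ⬝ᵥ (B *ᵥ e j) = if i = j then 8 else 0) ∧
      ∀ i j k, (2 : ℤ) ∣ (e i - e j) k := by
  classical
  obtain ⟨x0, hx0⟩ : {x : Fin 24 → ℤ | x ⬝ᵥ (B *ᵥ x) = 8}.Nonempty :=
    Set.nonempty_of_ncard_ne_zero (by rw [h8]; omega)
  have h48 := (leech_classes h h4 h6 h8).1 x0 hx0
  have hfin := Set.finite_of_ncard_ne_zero (by rw [h48]; omega :
    {y : Fin 24 → ℤ | y ⬝ᵥ (B *ᵥ y) = 8 ∧ ∀ i, (2 : ℤ) ∣ (x0 - y) i}.ncard ≠ 0)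
  set F := hfin.toFinset with hF
  have hFm : ∀ y, y ∈ F ↔ y ⬝ᵥ (B *ᵥ y) = 8 ∧ ∀ i, (2 : ℤ) ∣ (x0 - y) i := fun y => by simp [hF]
  have cF : F.card = 48 := by rw [hF, ← Set.ncard_eq_toFinset_card _ hfin, h48]
  have hneg : ∀ y ∈ F, -y ∈ F := fun y hy => by
    rw [hFm] at hy ⊢
    refine ⟨by rw [mulVec_neg, dotProduct_neg, neg_dotProduct, neg_neg]; exact hy.1, fun i => ?_⟩
    have := hy.2 i
    simp only [Pi.sub_apply, Pi.neg_apply] at this ⊢
    omega
  set p : (Fin 24 → ℤ) → Finset (Fin 24 → ℤ) := fun x => {x, -x} with hp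
  have hfib : ∀ s ∈ F.image p, (F.filter fun y => p y = s).card = 2 := by
    intro s hs
    obtain ⟨x, hx, rfl⟩ := Finset.mem_image.1 hs
    have hne : x ≠ -x := fun e => by
      have h0 : x = 0 := funext fun i => by have := congrFun e i; simp only [Pi.neg_apply] at this; simp only [Pi.zero_apply]; omega
      have := ((hFm x).1 hx).1
      simp [h0] at this
    have : F.filter (fun y => p y = p x) = {x, -x} := by
      ext y
      simp only [mem_filter]
      refine ⟨fun hy => ?_, fun hy => ?_⟩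
      · have : y ∈ p y := by simp [hp]
        rw [hy.2] at this; exact this
      · simp only [mem_insert, mem_singleton] at hy
        rcases hy with rfl | rfl
        · exact ⟨hx, rfl⟩
        · exact ⟨hneg x hx, by simp [hp, pair_comm]⟩
    rw [this, card_pair hne]
  have cP : (F.image p).card = 24 := by
    have := Finset.card_eq_sum_card_image p F
    rw [Finset.sum_congr rfl hfib, sum_const, smul_eq_mul, cF] at this
    omega
  let g : Fin 24 ≃ (F.image p : Finset _) := ((F.image p).equivFinOfCardEq cP).symm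
  have hr : ∀ i, ∃ x ∈ F, p x = (g i).1 := fun i => Finset.mem_image.1 (g i).2
  choose e he he' using hr
  refine ⟨e, fun i j => ?_, fun i j k => ?_⟩
  · obtain ⟨qi, ci⟩ := (hFm _).1 (he i)
    obtain ⟨qj, cj⟩ := (hFm _).1 (he j)
    split_ifs with hij
    · subst hij; exact qi
    · have hne : p (e i) ≠ p (e j) := fun hh => hij (g.injective (Subtype.ext (by rw [← he' i, ← he' j, hh])))
      rcases congr_short h (x := e i) (y := e j) (by omega) (by omega) (fun k => by
        have := ci k; have := cj k; simp only [Pi.sub_apply] at *; omega) with r | r | r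
      · exact absurd (by rw [r]) hne
      · exact absurd (by rw [r]; simp [hp, pair_comm]) hne
      · exact r.2.2
  · have := ((hFm _).1 (he i)).2 k
    have := ((hFm _).1 (he j)).2 k
    simp only [Pi.sub_apply] at *
    omega

/-- The form in frame coordinates. -/
theorem exists_coord (h : EvenRootless B)
    (h4 : {x : Fin 24 → ℤ | x ⬝ᵥ (B *ᵥ x) = 4}.ncard = 196560)
    (h6 : {x : Fin 24 → ℤ | x ⬝ᵥ (B *ᵥ x) = 6}.ncard = 16773120)
    (h8 : {x : Fin 24 → ℤ | x ⬝ᵥ (B *ᵥ x) = 8}.ncard = 398034000) :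
    ∃ φ : (Fin 24 → ℤ) →+ (GolayPt → ℤ), Function.Injective φ ∧
      (∀ y, sqNorm (φ y) = 8 * (y ⬝ᵥ (B *ᵥ y))) ∧ Frame φ.range := by
  classical
  obtain ⟨e, he, hc⟩ := exists_frame h h4 h6 h8
  set E : Matrix (Fin 24) (Fin 24) ℤ := Matrix.of e with hE
  have hEBE : E * B * Eᵀ = (8 : ℤ) • (1 : Matrix (Fin 24) (Fin 24) ℤ) := by
    ext i j
    rw [mul_mul_apply, transpose_transpose, Matrix.smul_apply, one_apply]
    show e i ⬝ᵥ (B *ᵥ e j) = _
    rw [he]; split_ifs <;> simp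
  have hdet : (E * B).det ≠ 0 := by
    have h1 := congrArg Matrix.det hEBE
    rw [det_mul, det_smul, det_one] at h1
    intro h0
    rw [h0, zero_mul, Fintype.card_fin] at h1
    norm_num at h1
  have hinv : Eᵀ * (E * B) = (8 : ℤ) • (1 : Matrix (Fin 24) (Fin 24) ℤ) := by
    have h0 : (E * B) * (Eᵀ * (E * B) - (8 : ℤ) • 1) = 0 := by
      rw [Matrix.mul_sub, ← Matrix.mul_assoc, hEBE, Matrix.smul_mul, Matrix.one_mul, Matrix.mul_smul, Matrix.mul_one,
        sub_self]
    have cancel : ∀ M X : Matrix (Fin 24) (Fin 24) ℤ, M.det ≠ 0 → M * X = 0 → X = 0 := fun M X hM hMX => by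
      have h1 := congrArg (fun Y => M.adjugate * Y) hMX
      simp only [← Matrix.mul_assoc, adjugate_mul, Matrix.smul_mul, Matrix.one_mul, Matrix.mul_zero] at h1
      exact (smul_eq_zero.1 h1).resolve_left hM
    exact sub_eq_zero.1 (cancel _ _ hdet h0)
  let g : GolayPt ≃ Fin 24 := Fintype.equivFinOfCardEq card_pt
  let φ : (Fin 24 → ℤ) →+ (GolayPt → ℤ) :=
    AddMonoidHom.mk' (fun y i => ((E * B) *ᵥ y) (g i)) fun a b => funext fun i => by
      rw [Matrix.mulVec_add]; rfl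
  have hnorm : ∀ y, sqNorm (φ y) = 8 * (y ⬝ᵥ (B *ᵥ y)) := fun y => by
    calc sqNorm (φ y) = ((E * B) *ᵥ y) ⬝ᵥ ((E * B) *ᵥ y) := by
          rw [dotProduct, ← Equiv.sum_comp g (fun i => ((E * B) *ᵥ y) i * ((E * B) *ᵥ y) i)]
          exact Finset.sum_congr rfl fun i _ => sq _
      _ = 8 * (y ⬝ᵥ (B *ᵥ y)) := by
          rw [dotProduct_mulVec, ← mulVec_transpose, transpose_mul, h.symm.eq, mulVec_mulVec,
            Matrix.mul_assoc, hinv, Matrix.mul_smul, Matrix.mul_one, smul_mulVec, smul_dotProduct,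
            smul_eq_mul, dotProduct_comm]
  have hinj : Function.Injective φ := (injective_iff_map_eq_zero φ).2 fun y hy => by
    by_contra h0
    have := h.pos y h0
    have := hnorm y
    rw [hy] at this
    simp [sqNorm] at this
    omega
  have hφe : ∀ i : GolayPt, φ (e (g i)) = Pi.single i 8 := fun i => funext fun k => by
    show ((E * B) *ᵥ e (g i)) (g k) = _
    rw [← mulVec_mulVec]
    show e (g k) ⬝ᵥ (B *ᵥ e (g i)) = _
    rw [he, Pi.single_apply]
    simp [g.injective.eq_iff]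
  refine ⟨φ, hinj, hnorm, ⟨?_, ?_, ?_, ?_⟩⟩
  · rintro _ ⟨y, rfl⟩
    rw [hnorm]
    have := h.even y
    omega
  · rintro _ ⟨y, rfl⟩ h0
    have hy : y ≠ 0 := fun e => h0 (by rw [e, map_zero])
    have := four_le h hy
    rw [hnorm]
    omega
  · intro i j hij c d hc' hd
    have key : ∀ u v : ℤ, (u = 1 ∨ u = -1) → (v = 1 ∨ v = -1) →
        (Pi.single i (4 * u) + Pi.single j (4 * v) : GolayPt → ℤ) ∈ φ.range := by
      intro u v hu hv
      have hdiv : ∀ k, (2 : ℤ) ∣ u * e (g i) k + v * e (g j) k := fun k => by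
        have := hc (g i) (g j) k
        simp only [Pi.sub_apply] at this
        rcases hu with rfl | rfl <;> rcases hv with rfl | rfl <;> omega
      choose z hz using hdiv
      refine ⟨z, funext fun k => ?_⟩
      have h2 : φ ((2 : ℤ) • z) = u • φ (e (g i)) + v • φ (e (g j)) := by
        rw [← map_zsmul, ← map_zsmul, ← map_add]
        exact congrArg φ (funext fun k => by simp [hz k])
      have := congrFun h2 k
      simp only [map_zsmul, hφe, Pi.smul_apply, Pi.add_apply, Pi.single_apply, smul_eq_mul] at this ⊢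
      split_ifs at this ⊢ <;> omega
    obtain ⟨u, hu, rfl⟩ : ∃ u, (u = 1 ∨ u = -1) ∧ c = 4 * u := ⟨c / 4, by omega, by omega⟩
    obtain ⟨v, hv, rfl⟩ : ∃ v, (v = 1 ∨ v = -1) ∧ d = 4 * v := ⟨d / 4, by omega, by omega⟩
    exact key u v hu hv
  · have : {a : GolayPt → ℤ | a ∈ φ.range ∧ sqNorm a = 32} =
        φ '' {x | x ⬝ᵥ (B *ᵥ x) = 4} := by
      ext a
      constructor
      · rintro ⟨⟨y, rfl⟩, hy⟩
        rw [hnorm] at hy
        exact ⟨y, by show _ = (4 : ℤ); omega, rfl⟩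
      · rintro ⟨y, hy, rfl⟩
        have hy' : y ⬝ᵥ (B *ᵥ y) = 4 := hy
        exact ⟨⟨y, rfl⟩, by rw [hnorm, hy']; norm_num⟩
    rw [this, Set.ncard_image_of_injective _ hinj, h4]

end CfsgLib.LeechChar
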