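/-
A lattice in frame coordinates with the minimum and kissing number of the Leech lattice is the
Leech lattice up to a monomial change of coordinates.
-/
import Cfsg.Agent.LeechChar.Frame
import Cfsg.Agent.Steiner.Iso24
import Cfsg.Agent.Golay.Cocode23

set_option autoImplicit false

namespace CfsgLib.LeechChar

open Cfsg CfsgLib.Golay CfsgLib.Leech Finset

/-- A monomial map. -/
def mono (σ : GolayPt ≃ GolayPt) (ε : GolayPt → ℤ) (hε : ∀ i, ε i * ε i = 1) :
    (GolayPt → ℤ) ≃+ (GolayPt → ℤ) where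
  toFun x i := ε i * x (σ i)
  invFun y j := ε (σ.symm j) * y (σ.symm j)
  left_inv x := funext fun j => by simp [← mul_assoc, hε]
  right_inv y := funext fun i => by simp [← mul_assoc, hε]
  map_add' x y := funext fun i => mul_add _ _ _

variable {σ : GolayPt ≃ GolayPt} {ε : GolayPt → ℤ} {hε : ∀ i, ε i * ε i = 1}

theorem mono_apply (x : GolayPt → ℤ) (i : GolayPt) : mono σ ε hε x i = ε i * x (σ i) := rfl

theorem sqNorm_mono (x : GolayPt → ℤ) : sqNorm (mono σ ε hε x) = sqNorm x := by
  rw [sqNorm, sqNorm, ← Equiv.sum_comp σ (fun i => x i ^ 2)]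
  exact Finset.sum_congr rfl fun i _ => by rw [mono_apply, mul_pow, sq (ε i), hε, one_mul]

variable {Λ : AddSubgroup (GolayPt → ℤ)}

theorem Frame.comap (h : Frame Λ) : Frame (Λ.comap (mono σ ε hε).toAddMonoidHom) where
  dvd a ha := sqNorm_mono (σ := σ) (ε := ε) (hε := hε) a ▸ h.dvd _ ha
  min a ha h0 := sqNorm_mono (σ := σ) (ε := ε) (hε := hε) a ▸
    h.min _ ha fun e => h0 ((mono σ ε hε).map_eq_zero_iff.1 e)
  pairs i j hij c d hc hd := by
    have sgn : ∀ k, ε k = 1 ∨ ε k = -1 := fun k => by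
      have := Int.eq_one_or_neg_one_of_mul_eq_one (hε k); exact this
    have e : mono σ ε hε (Pi.single i c + Pi.single j d) =
        Pi.single (σ.symm i) (ε (σ.symm i) * c) + Pi.single (σ.symm j) (ε (σ.symm j) * d) := funext fun k => by
      simp only [mono_apply, Pi.add_apply, Pi.single_apply, Equiv.eq_symm_apply, mul_add, mul_ite, mul_zero]
      congr 1 <;> split_ifs with hk <;> first | rfl | rw [← hk, σ.symm_apply_apply]
    show mono σ ε hε _ ∈ Λ
    rw [e]
    refine h.pairs _ _ (fun hh => hij (σ.symm.injective hh)) _ _ ?_ ?_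
    · rcases sgn (σ.symm i) with e1 | e1 <;> rcases hc with rfl | rfl <;> simp [e1]
    · rcases sgn (σ.symm j) with e1 | e1 <;> rcases hd with rfl | rfl <;> simp [e1]
  count := by
    rw [← h.count, show {a : GolayPt → ℤ | a ∈ Λ ∧ sqNorm a = 32} = mono σ ε hε ''
      {a | a ∈ Λ.comap (mono σ ε hε).toAddMonoidHom ∧ sqNorm a = 32} from ?_,
      Set.ncard_image_of_injective _ (mono σ ε hε).injective]
    ext a
    constructor
    · rintro ⟨ha, hn⟩
      refine ⟨(mono σ ε hε).symm a, ⟨?_, ?_⟩, (mono σ ε hε).apply_symm_apply a⟩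
      · show mono σ ε hε _ ∈ Λ
        rwa [(mono σ ε hε).apply_symm_apply]
      · rwa [← sqNorm_mono (σ := σ) (ε := ε) (hε := hε), (mono σ ε hε).apply_symm_apply]
    · rintro ⟨b, ⟨hb, hn⟩, rfl⟩
      exact ⟨hb, (sqNorm_mono b).trans hn⟩

theorem eq_leech (h : Frame Λ) (hodd : oddVec ∈ Λ)
    (hoct : ∀ o ∈ octads, ∃ a ∈ Λ, Shape 2 a o) : Λ = leechLattice := by
  classical
  have hc : ∀ i, oddVec i % 2 = 1 := by decide
  have hH : HasGens Λ := by
    refine ⟨fun a ha => h.pairs _ _ (by simp) 4 a (Or.inl rfl) ha,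
      fun j hj => h.pairs _ _ hj 4 (-4) (Or.inl rfl) (Or.inr rfl), fun a ha => ?_, hodd⟩
    have hb := List.all_eq_true.1 (by decide +kernel :
      basis.all (fun a => Nat.blt a.2 16777216 && inCode a.2 && Nat.beq (popc a.2) 8) = true) a ha
    simp only [Bool.and_eq_true, Nat.blt_eq, Nat.beq_eq] at hb
    have ho : toSet a.2 ∈ octads := ⟨mem_supports_iff.2 (by rw [mask_toSet hb.1.1]; exact hb.1.2),
      by rw [card_toSet hb.1.1]; exact hb.2⟩
    generalize toSet a.2 = o at ho
    obtain ⟨x, hx, hs⟩ := hoct o ho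
    let z : GolayPt → ℤ := fun i => if i ∈ o ∧ x i < 0 then 1 else 0
    have e : two o = x + fun i => 4 * z i := funext fun i => by
      simp only [Pi.add_apply, two, z]
      by_cases hi : i ∈ o
      · rcases hs.1 i hi with e | e <;> simp [e, hi]
      · simp [hs.2 i hi, hi]
    rw [e]
    refine add_mem hx (h.four z ?_)
    have d1 := h.dot hx hodd
    have d2 := dot_dvd (two_mem ho.1) oddVec_mem
    have d3 : dotInt (two o) oddVec = dotInt x oddVec + 4 * ∑ i, z i * oddVec i := by
      simp only [e, dotInt, Pi.add_apply, add_mul, Finset.sum_add_distrib, Finset.mul_sum, mul_assoc]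
    have d4 : (2 : ℤ) ∣ ∑ i, (z i * oddVec i - z i) := Finset.dvd_sum fun i _ => by
      have := hc i
      simp only [z]; split_ifs <;> omega
    rw [Finset.sum_sub_distrib] at d4
    omega
  refine le_antisymm (fun a ha => ?_) (le_of_gens hH)
  obtain ⟨m, hm, hpar⟩ : ∃ m : ℤ, (m = 0 ∨ m = 1) ∧ ∀ i, a i % 2 = m :=
    ⟨a none % 2, Int.emod_two_eq_zero_or_one _, fun i => h.parity ha i none⟩
  suffices hev : ∀ b ∈ Λ, (∀ i, b i % 2 = 0) → b ∈ leechLattice by
    rcases hm with rfl | rfl
    · exact hev a ha hpar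
    · have := hev (a - oddVec) (sub_mem ha hodd) fun i => by
        have := hpar i; have := hc i; simp only [Pi.sub_apply]; omega
      simpa using add_mem this oddVec_mem
  intro b hb b2
  refine mem_lattice.2 ⟨0, Or.inl rfl, b2, ?_, ?_⟩
  · have e : dotInt b oddVec = ∑ i, b i - 4 * b none := by
      rw [show oddVec = (fun _ => (1 : ℤ)) + Pi.single none (-4) from funext (by decide), dot_add, dot_single]
      simp [dotInt, sub_eq_add_neg, mul_comm]
    have := h.dot hb hodd
    have := b2 none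
    omega
  · refine Cocode23.mem_code_of_orth fun v hv => ?_
    obtain ⟨k, hk, -, k2, rfl⟩ := exists_minGen hH hv
    exact dot_half k2 b2 (h.dot hk hb)

/-- A monomial map carries the lattice to the Leech lattice. -/
theorem exists_mono (h : Frame Λ) : ∃ T : (GolayPt → ℤ) ≃+ (GolayPt → ℤ),
    (∀ x, sqNorm (T x) = sqNorm x) ∧ Λ.comap T.toAddMonoidHom = leechLattice := by
  classical
  obtain ⟨hS, hodd⟩ := h.main
  obtain ⟨σ, hσ⟩ := Steiner.iso_octads hS card_pt
  obtain ⟨a, ha, hp, hrest⟩ := hodd (σ.symm none)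
  let ε : GolayPt → ℤ := fun i => if σ i = none then (if a i = -3 then 1 else -1) else a i
  have hε : ∀ i, ε i * ε i = 1 := fun i => by
    simp only [ε]
    by_cases hi : σ i = none
    · rw [if_pos hi]; split_ifs <;> rfl
    · have hne : i ≠ σ.symm none := fun e => hi (by rw [e, σ.apply_symm_apply])
      rw [if_neg hi]
      rcases hrest i hne with e | e <;> simp [e]
  have hT : mono σ ε hε oddVec = a := funext fun i => by
    simp only [mono_apply, oddVec, ε]
    by_cases hi : σ i = none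
    · rw [if_pos hi, if_pos hi]
      rw [show i = σ.symm none by rw [← hi, σ.symm_apply_apply]]
      rcases hp with e | e <;> simp [e]
    · rw [if_neg hi, if_neg hi, mul_one]
  refine ⟨mono σ ε hε, sqNorm_mono, eq_leech h.comap (show mono σ ε hε oddVec ∈ Λ by rwa [hT]) fun o ho => ?_⟩
  rw [← hσ] at ho
  obtain ⟨s, ⟨-, b, hb, hs⟩, rfl⟩ := ho
  refine ⟨(mono σ ε hε).symm b, show mono σ ε hε _ ∈ Λ by rwa [AddEquiv.apply_symm_apply], fun j hj => ?_, fun j hj => ?_⟩
  · obtain ⟨i, hi, rfl⟩ := Finset.mem_image.1 hj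
    show ε (σ.symm (σ i)) * b (σ.symm (σ i)) = 2 ∨ ε (σ.symm (σ i)) * b (σ.symm (σ i)) = -2
    rw [σ.symm_apply_apply]
    rcases Int.eq_one_or_neg_one_of_mul_eq_one (hε i) with e | e <;> rcases hs.1 i hi with e' | e' <;>
      simp [e, e']
  · show ε (σ.symm j) * b (σ.symm j) = 0
    rw [hs.2 _ fun hh => hj (Finset.mem_image.2 ⟨_, hh, σ.apply_symm_apply j⟩), mul_zero]

end CfsgLib.LeechChar
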